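import Cfsg.Agent.Lib.HSUnitary.Perms
import Cfsg.Agent.Lib.Leech.SubOrbits

/-! The stabiliser of a point among 352 in the Higman–Sims group acts on 126 pairs of vectors. -/

set_option autoImplicit false
set_option maxRecDepth 100000

namespace Cfsg.Agent.Lib.HSUnitary

open Cfsg Cfsg.Agent.Lib.Golay Cfsg.Agent.Lib.Leech

/-- The packed vectors. -/
def num (i : Fin 126) (e : Fin 2) : ℕ := Data.vecs.getD (2 * i.val + e.val) 0

theorem vec_checks : ∀ i e, Leech.check (toVec (num i e)) = true ∧ sqNorm (toVec (num i e)) = 32 := by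
  decide +kernel

/-- The vectors. -/
def vec (i : Fin 126) (e : Fin 2) : ↥leechLattice := ⟨toVec (num i e), mem_of_check (vec_checks i e).1⟩

theorem vec_norm (i : Fin 126) (e : Fin 2) : sqNorm (vec i e : GolayPt → ℤ) ≤ 64 := by
  show sqNorm (toVec (num i e)) ≤ 64
  rw [(vec_checks i e).2]; norm_num

theorem keys_ok : distinctFrom (Data.vecs.map key) .leaf = true ∧ Data.vecs.length = 252 := by decide +kernel

theorem vec_inj {i j : Fin 126} {e e' : Fin 2} (h : vec i e = vec j e') : i = j := by
  obtain ⟨hnd, -⟩ := distinctFrom_spec keys_ok.1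
  have hk : key (num i e) = key (num j e') := key_congr (congrArg Subtype.val h)
  have hi : 2 * i.val + e.val < Data.vecs.length := by rw [keys_ok.2]; omega
  have hj : 2 * j.val + e'.val < Data.vecs.length := by rw [keys_ok.2]; omega
  have := (List.Nodup.getElem_inj_iff hnd (hi := by simpa using hi) (hj := by simpa using hj)).1
    (by simpa [num, List.getElem?_eq_getElem hi, List.getElem?_eq_getElem hj] using hk)
  exact Fin.ext (by omega)

/-- The stabiliser of the chosen point. -/
noncomputable def stab : Subgroup ↥Co0 := pairStab fourNeg ⊓ MulAction.stabilizer ↥Co0 hsRep0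

theorem word_checks_lattice : ([Data.wordA, Data.wordB].all fun w => wOk w && (wRun w RankOrb.five == RankOrb.five) &&
    (wRun w SubOrb.negFour == SubOrb.negFour) && (wRun w SubOrb.hsSub0Start == SubOrb.hsSub0Start)) = true := by
  decide +kernel

theorem moves_checks :
    (∀ i e, wRun Data.wordA (num i e) = num (fn Data.permA i) 0 ∨ wRun Data.wordA (num i e) = num (fn Data.permA i) 1) ∧
    (∀ i e, wRun Data.wordB (num i e) = num (fn Data.permB i) 0 ∨ wRun Data.wordB (num i e) = num (fn Data.permB i) 1) := by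
  decide +kernel

theorem word_mem {w : List Op} (hw : w ∈ [Data.wordA, Data.wordB]) : wCo w ∈ stab ∧ wOk w = true := by
  have h := List.all_eq_true.1 word_checks_lattice w hw
  simp only [Bool.and_eq_true] at h
  exact ⟨⟨⟨wCo_fix h.1.1.1 (funext vec_eqs.1) (by rw [vFive_shape.1]; norm_num) h.1.1.2,
    wCo_fix h.1.1.1 (funext negFour_eq) (by rw [start_facts.2.2.2.2.2.1]; norm_num) h.1.2⟩,
    wCo_fix h.1.1.1 rfl (by rw [hs_rep_facts.1.1]; norm_num) h.2⟩, h.1.1.1⟩

/-- A permutation follows an isometry. -/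
def Follows (p : Equiv.Perm (Fin 126)) (k : ↥stab) : Prop :=
  ∀ i e, ∃ e', (k : ↥Co0) • vec i e = vec (p i) e'

theorem follows_word {w : List Op} (hw : w ∈ [Data.wordA, Data.wordB]) {l : List ℕ} {p : Equiv.Perm (Fin 126)}
    (hp : ∀ i, p i = fn l i) (h : ∀ i e, wRun w (num i e) = num (fn l i) 0 ∨ wRun w (num i e) = num (fn l i) 1) :
    Follows p ⟨wCo w, (word_mem hw).1⟩ := by
  intro i e
  have hs := wRun_spec (word_mem hw).2 (L := num i e) (x := vec i e) rfl (vec_norm i e)
  rcases h i e with h' | h'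
  · exact ⟨0, Subtype.ext (by rw [hs, h', hp]; rfl)⟩
  · exact ⟨1, Subtype.ext (by rw [hs, h', hp]; rfl)⟩

theorem card_stab : Nat.card ↥stab = 126000 := by
  have ho := hs_suborbits.1
  have hc := hs_simple.2
  set S := MulAction.stabilizer ↥(pairStab fourNeg) hsRep0 with hS
  have hi : S.index = 352 := by rw [hS, MulAction.index_stabilizer, ho, hsClass_ncard.1]
  have he : Nat.card ↥S = Nat.card ↥stab := by
    rw [← Subgroup.card_map_of_injective (K := S) (pairStab fourNeg).subtype_injective]
    congr 2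
    ext g
    simp only [Subgroup.mem_map, Subgroup.coe_subtype, stab, Subgroup.mem_inf, hS, MulAction.mem_stabilizer_iff]
    constructor
    · rintro ⟨x, hx, rfl⟩; exact ⟨x.2, hx⟩
    · rintro ⟨h1, h2⟩; exact ⟨⟨g, h1⟩, h2, rfl⟩
  have := S.card_mul_index
  rw [hi, hc, he] at this
  omega

theorem stab_equiv : Nonempty (↥stab ≃* ↥grp) := by
  refine iso_of_graph Follows (fun i e => ⟨e, by simp⟩) ?_ ?_ pA pB _ _
    (follows_word (by simp) (fun _ => rfl) moves_checks.1) (follows_word (by simp) (fun _ => rfl) moves_checks.2)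
    (by norm_num) card_stab card_grp_ge
  · intro p g q h hp hq i e
    obtain ⟨e1, h1⟩ := hq i e
    obtain ⟨e2, h2⟩ := hp (q i) e1
    exact ⟨e2, by rw [Subgroup.coe_mul, mul_smul, h1, h2, Equiv.Perm.mul_apply]⟩
  · intro p hp
    refine Equiv.ext fun i => ?_
    obtain ⟨e', h⟩ := hp i 0
    rw [Subgroup.coe_one, one_smul] at h
    exact (vec_inj h).symm

end Cfsg.Agent.Lib.HSUnitary
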