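import Cfsg.Agent.Lib.HSUnitary.Data
import Mathlib.GroupTheory.GroupAction.Basic
import Mathlib.GroupTheory.OrderOfElement
import Mathlib.GroupTheory.Perm.Basic

/-! The permutation group on 126 points, and recognition of a group through the graph of an action. -/

set_option autoImplicit false
set_option maxRecDepth 100000

namespace Cfsg.Agent.Lib.HSUnitary

/-- A group with a related generating pair of permutations. -/
theorem iso_of_graph {G : Type*} [Group G] {n : ℕ} (R : Equiv.Perm (Fin n) → G → Prop)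
    (hone : R 1 1) (hmul : ∀ p g q h, R p g → R q h → R (p * q) (g * h)) (huniq : ∀ p, R p 1 → p = 1)
    (pa pb : Equiv.Perm (Fin n)) (a b : G) (ha : R pa a) (hb : R pb b) {N : ℕ} (hN : N ≠ 0) (hG : Nat.card G = N)
    (hge : N ≤ Nat.card ↥(Subgroup.closure ({pa, pb} : Set (Equiv.Perm (Fin n))))) :
    Nonempty (G ≃* ↥(Subgroup.closure ({pa, pb} : Set (Equiv.Perm (Fin n))))) := by
  haveI : Finite G := Nat.finite_of_card_ne_zero (hG ▸ hN)
  set H := Subgroup.closure ({pa, pb} : Set (Equiv.Perm (Fin n))) with hH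
  set Γ := Subgroup.closure ({(pa, a), (pb, b)} : Set (Equiv.Perm (Fin n) × G)) with hΓ
  have hR : ∀ x ∈ Γ, R x.1 x.2 := by
    intro x hx
    have hx' : x ∈ Submonoid.closure ({(pa, a), (pb, b)} : Set (Equiv.Perm (Fin n) × G)) := by
      rw [← Subgroup.closure_toSubmonoid_of_finite]; exact hx
    induction hx' using Submonoid.closure_induction with
    | mem y hy =>
      rcases hy with rfl | rfl
      · exact ha
      · exact hb
    | one => exact hone
    | mul y z _ _ iy iz => exact hmul _ _ _ _ (iy (by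
        rw [hΓ, ← Subgroup.mem_toSubmonoid, Subgroup.closure_toSubmonoid_of_finite]; assumption)) (iz (by
        rw [hΓ, ← Subgroup.mem_toSubmonoid, Subgroup.closure_toSubmonoid_of_finite]; assumption))
  let f₁ : ↥Γ →* Equiv.Perm (Fin n) := (MonoidHom.fst _ _).comp Γ.subtype
  let f₂ : ↥Γ →* G := (MonoidHom.snd _ _).comp Γ.subtype
  have h2 : Function.Injective f₂ := by
    rw [injective_iff_map_eq_one]
    rintro ⟨⟨p, g⟩, hx⟩ h
    obtain rfl : g = 1 := h
    obtain rfl := huniq p (hR _ hx)
    rfl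
  have h1 : f₁.range = H := by
    rw [MonoidHom.range_eq_map, ← Subgroup.map_map, ← MonoidHom.range_eq_map, Subgroup.range_subtype, hΓ,
      MonoidHom.map_closure, Set.image_pair]
    rfl
  have c1 : Nat.card ↥H ≤ Nat.card ↥Γ := by
    rw [← h1]
    exact Nat.card_le_card_of_surjective _ f₁.rangeRestrict_surjective
  have c2 : Nat.card ↥Γ ≤ Nat.card G := Nat.card_le_card_of_injective _ h2
  have b2 : Function.Bijective f₂ := (Nat.bijective_iff_injective_and_card _).2 ⟨h2, by omega⟩
  have b1 : Function.Bijective f₁.rangeRestrict := (Nat.bijective_iff_surjective_and_card _).2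
    ⟨f₁.rangeRestrict_surjective, by rw [h1]; omega⟩
  exact ⟨(MulEquiv.ofBijective f₂ b2).symm.trans ((MulEquiv.ofBijective f₁.rangeRestrict b1).trans
    (MulEquiv.subgroupCongr h1))⟩

/-- A list as a self-map of 126 points. -/
def fn (l : List ℕ) (i : Fin 126) : Fin 126 := ⟨l.getD i.val 0 % 126, Nat.mod_lt _ (by norm_num)⟩

theorem inverse_checks :
    ((∀ i, fn Data.permAinv (fn Data.permA i) = i) ∧ (∀ i, fn Data.permA (fn Data.permAinv i) = i)) ∧
    ((∀ i, fn Data.permBinv (fn Data.permB i) = i) ∧ (∀ i, fn Data.permB (fn Data.permBinv i) = i)) := by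
  decide +kernel

/-- The first generator. -/
def pA : Equiv.Perm (Fin 126) :=
  ⟨fn Data.permA, fn Data.permAinv, inverse_checks.1.1, inverse_checks.1.2⟩

/-- The second generator. -/
def pB : Equiv.Perm (Fin 126) :=
  ⟨fn Data.permB, fn Data.permBinv, inverse_checks.2.1, inverse_checks.2.2⟩

/-- The group they generate. -/
def grp : Subgroup (Equiv.Perm (Fin 126)) := Subgroup.closure ({pA, pB} : Set (Equiv.Perm (Fin 126)))

/-- A word. -/
def wd : List Bool → Equiv.Perm (Fin 126)
  | [] => 1
  | false :: w => pA * wd w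
  | true :: w => pB * wd w

/-- A word, evaluated. -/
def ev : List Bool → Fin 126 → Fin 126
  | [], i => i
  | false :: w, i => fn Data.permA (ev w i)
  | true :: w, i => fn Data.permB (ev w i)

theorem wd_apply : ∀ (w : List Bool) (i : Fin 126), wd w i = ev w i
  | [], _ => rfl
  | false :: w, i => by rw [wd, ev, Equiv.Perm.mul_apply, wd_apply w i]; rfl
  | true :: w, i => by rw [wd, ev, Equiv.Perm.mul_apply, wd_apply w i]; rfl

theorem wd_mem : ∀ w : List Bool, wd w ∈ grp
  | [] => one_mem _
  | false :: w => mul_mem (Subgroup.subset_closure (by simp)) (wd_mem w)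
  | true :: w => mul_mem (Subgroup.subset_closure (by simp)) (wd_mem w)

/-- Points reached along a tree. -/
def grow (f g : Fin 126 → Fin 126) (z : Fin 126) : List (ℕ × ℕ × ℕ) → List (Fin 126) → List (Fin 126)
  | [], o => o
  | (i, k, _) :: T, o => grow f g z T (o ++ [(if i = 0 then f else g) (o.getD k z)])

theorem grow_mem (f g : Fin 126 → Fin 126) (z : Fin 126) (S : Set (Fin 126)) (hz : z ∈ S)
    (hf : ∀ x ∈ S, f x ∈ S) (hg : ∀ x ∈ S, g x ∈ S) :
    ∀ (T : List (ℕ × ℕ × ℕ)) (o : List (Fin 126)), (∀ x ∈ o, x ∈ S) → ∀ x ∈ grow f g z T o, x ∈ S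
  | [], _, ho, x, hx => ho x hx
  | (i, k, m) :: T, o, ho, x, hx => by
    refine grow_mem f g z S hz hf hg T _ (fun y hy => ?_) x hx
    rcases List.mem_append.1 hy with hy | hy
    · exact ho y hy
    · rw [List.mem_singleton] at hy
      have hk : o.getD k z ∈ S := by
        by_cases h : k < o.length
        · rw [List.getD_eq_getElem _ _ h]; exact ho _ (List.getElem_mem h)
        · rw [List.getD_eq_default _ _ (not_lt.1 h)]; exact hz
      subst hy
      split_ifs
      · exact hf _ hk
      · exact hg _ hk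

theorem tree_checks :
    (∀ x, x ∈ grow (fn Data.permA) (fn Data.permB) 0 Data.treeOne [0]) ∧
    (∀ x : Fin 126, x ≠ 0 → x ∈ grow (ev Data.wordC) (ev Data.wordC') 1 Data.treeTwo [1]) := by decide +kernel

theorem word_checks : ev Data.wordC 0 = 0 ∧ ev Data.wordC' 0 = 0 ∧ ev Data.wordD 0 = 0 ∧ ev Data.wordD 1 = 1 ∧
    (∀ i, (ev Data.wordD)^[8] i = i) ∧ ¬ (∀ i, (ev Data.wordD)^[4] i = i) := by decide +kernel

theorem wd_pow (w : List Bool) (k : ℕ) (i : Fin 126) : (wd w ^ k) i = (ev w)^[k] i := by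
  induction k with
  | zero => rfl
  | succ k ih => rw [pow_succ', Equiv.Perm.mul_apply, ih, wd_apply, Function.iterate_succ_apply']

theorem order_wordD : orderOf (wd Data.wordD) = 8 := by
  haveI : Fact (Nat.Prime 2) := ⟨Nat.prime_two⟩
  obtain ⟨-, -, -, -, h8, h4⟩ := word_checks
  exact orderOf_eq_prime_pow (p := 2) (n := 2)
    (fun h => h4 fun i => by rw [← wd_pow]; simpa using congrFun (congrArg DFunLike.coe h) i)
    (Equiv.ext fun i => by rw [wd_pow]; simpa using h8 i)

/-- The group has order at least 126000. -/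
theorem card_grp_ge : 126000 ≤ Nat.card ↥grp := by
  obtain ⟨c0, c0', d0, d1, -, -⟩ := word_checks
  set S₀ := MulAction.stabilizer ↥grp (0 : Fin 126) with hS₀
  set S₁ := MulAction.stabilizer ↥S₀ (1 : Fin 126) with hS₁
  have o1 : MulAction.orbit ↥grp (0 : Fin 126) = Set.univ := by
    refine Set.eq_univ_of_forall fun x => grow_mem (fn Data.permA) (fn Data.permB) 0 _ (MulAction.mem_orbit_self _)
      ?_ ?_ Data.treeOne [0] (by simp [MulAction.mem_orbit_self]) x (tree_checks.1 x)
    · intro y hy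
      exact MulAction.mem_orbit_of_mem_orbit (⟨pA, Subgroup.subset_closure (by simp)⟩ : ↥grp) hy
    · intro y hy
      exact MulAction.mem_orbit_of_mem_orbit (⟨pB, Subgroup.subset_closure (by simp)⟩ : ↥grp) hy
  let el : ∀ w, ev w 0 = 0 → ↥S₀ := fun w h => ⟨⟨wd w, wd_mem w⟩, by
    rw [hS₀, MulAction.mem_stabilizer_iff]
    show wd w 0 = 0
    rw [wd_apply, h]⟩
  have o2 : ({0}ᶜ : Set (Fin 126)) ⊆ MulAction.orbit ↥S₀ (1 : Fin 126) := by
    intro x hx
    refine grow_mem (ev Data.wordC) (ev Data.wordC') 1 _ (MulAction.mem_orbit_self _)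
      ?_ ?_ Data.treeTwo [1] (by simp [MulAction.mem_orbit_self]) x (tree_checks.2 x hx)
    · intro y hy
      have := MulAction.mem_orbit_of_mem_orbit (el _ c0) hy
      rwa [show el _ c0 • y = ev Data.wordC y from wd_apply _ _] at this
    · intro y hy
      have := MulAction.mem_orbit_of_mem_orbit (el _ c0') hy
      rwa [show el _ c0' • y = ev Data.wordC' y from wd_apply _ _] at this
  have n1 : S₀.index = 126 := by rw [hS₀, MulAction.index_stabilizer, o1, Set.ncard_univ, Nat.card_fin]
  have n2 : 125 ≤ S₁.index := by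
    rw [hS₁, MulAction.index_stabilizer]
    refine le_trans (le_of_eq ?_) (Set.ncard_le_ncard o2 (Set.toFinite _))
    rw [Set.ncard_compl, Set.ncard_singleton, Nat.card_fin]
  have hd : el _ d0 ∈ S₁ := by
    rw [hS₁, MulAction.mem_stabilizer_iff]
    show wd Data.wordD 1 = 1
    rw [wd_apply, d1]
  have n3 : 8 ≤ Nat.card ↥S₁ := by
    have h := orderOf_le_card (x := (⟨el _ d0, hd⟩ : ↥S₁))
    rw [← order_wordD]
    refine le_trans (le_of_eq ?_) h
    rw [← Subgroup.orderOf_coe, ← Subgroup.orderOf_coe, ← Subgroup.orderOf_coe]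
  rw [← S₀.card_mul_index, ← S₁.card_mul_index, n1]
  calc 126000 = 8 * 125 * 126 := by norm_num
    _ ≤ _ := Nat.mul_le_mul_right _ (Nat.mul_le_mul n3 n2)

end Cfsg.Agent.Lib.HSUnitary
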